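import Cfsg.Agent.LocalP.ThompsonJ

/-!
An abelian 2-group acting faithfully on an elementary abelian 2-group `X` with exactly one nontrivial
fixed point has order at most `|X| / 2`.
-/

set_option autoImplicit false

open Cfsg
open scoped Pointwise

namespace CfsgLib.JComp

variable {G : Type*} [Group G] [Finite G]

theorem exists_complement {X : Subgroup G} (hX : IsElementaryAbelian 2 X) {z : G} (hz : z ∈ X)
    (hz1 : z ≠ 1) :
    ∃ s : Finset G, (↑s : Set G) ⊆ X ∧ z ∉ Subgroup.closure (s : Set G) ∧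
      2 * 2 ^ s.card ≤ Nat.card X ∧ X ≤ Subgroup.zpowers z ⊔ Subgroup.closure (s : Set G) := by
  classical
  have hX' := CfsgLib.LocalP.isElementaryAbelian_iff.mp hX
  suffices key : ∀ m : ℕ, ∃ s : Finset G, (↑s : Set G) ⊆ X ∧ z ∉ Subgroup.closure (s : Set G) ∧
      2 * 2 ^ s.card ≤ Nat.card ↥(Subgroup.zpowers z ⊔ Subgroup.closure (s : Set G)) ∧
      (s.card = m ∨ X ≤ Subgroup.zpowers z ⊔ Subgroup.closure (s : Set G)) by
    obtain ⟨s, h1, h2, h3, h4⟩ := key (Nat.card X)
    have hle : Subgroup.zpowers z ⊔ Subgroup.closure (s : Set G) ≤ X :=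
      sup_le (Subgroup.zpowers_le.mpr hz) ((Subgroup.closure_le _).mpr h1)
    have h5 := h3.trans (Subgroup.card_le_of_le hle)
    refine ⟨s, h1, h2, h5, h4.resolve_left fun h => ?_⟩
    have := Nat.lt_two_pow_self (n := s.card)
    omega
  intro m
  induction m with
  | zero =>
    refine ⟨∅, by simp, by simpa using hz1, ?_, Or.inl rfl⟩
    simp only [Finset.coe_empty, Subgroup.closure_empty, sup_bot_eq, Finset.card_empty, pow_zero,
      mul_one, Nat.card_zpowers]
    rw [orderOf_eq_prime (hX'.2 z hz) hz1]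
  | succ m ih =>
    obtain ⟨s, h1, h2, h3, h4⟩ := ih
    set Y := Subgroup.zpowers z ⊔ Subgroup.closure (s : Set G) with hY
    by_cases hle : X ≤ Y
    · exact ⟨s, h1, h2, h3, Or.inr hle⟩
    obtain ⟨x, hx, hxY⟩ := SetLike.not_le_iff_exists.mp hle
    refine ⟨insert x s, ?_, ?_, ?_, Or.inl ?_⟩
    · rw [Finset.coe_insert]
      exact Set.insert_subset hx h1
    · rw [Finset.coe_insert, Set.insert_eq, Subgroup.closure_union, ← Subgroup.zpowers_eq_closure]
      intro hmem
      have hn : Subgroup.closure (s : Set G) ≤ Subgroup.normalizer (Subgroup.zpowers x : Set G) := by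
        refine le_trans ?_ (Subgroup.centralizer_le_normalizer _)
        intro y hy
        refine Subgroup.mem_centralizer_iff.mpr fun w hw => ?_
        exact hX'.1 w (Subgroup.zpowers_le.mpr hx hw) y ((Subgroup.closure_le _).mpr h1 hy)
      have hmem' : z ∈ (Subgroup.zpowers x : Set G) * (Subgroup.closure (s : Set G) : Set G) := by
        rw [← Subgroup.coe_mul_of_right_le_normalizer_left _ _ hn]; exact hmem
      obtain ⟨_, ⟨i, rfl⟩, h, hh, he⟩ := hmem'
      rcases Int.even_or_odd i with ⟨j, rfl⟩ | ⟨j, rfl⟩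
      · refine h2 ?_
        have : x ^ (j + j) = 1 := by rw [← two_mul, zpow_mul, zpow_ofNat, hX'.2 x hx, one_zpow]
        simp only [this, one_mul] at he
        exact he ▸ hh
      · refine hxY ?_
        have : x ^ (2 * j + 1) = x := by
          rw [zpow_add, zpow_mul, zpow_ofNat, hX'.2 x hx, one_zpow, one_mul, zpow_one]
        simp only [this] at he
        have hxe : x = z * h⁻¹ := by rw [← he, mul_inv_cancel_right]
        rw [hxe]
        exact mul_mem (Subgroup.mem_sup_left (Subgroup.mem_zpowers z)) (Subgroup.mem_sup_right (inv_mem hh))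
    · rw [Finset.card_insert_of_notMem (fun h => hxY (Subgroup.mem_sup_right (Subgroup.subset_closure h))),
        pow_succ, ← mul_assoc]
      set Y' := Subgroup.zpowers z ⊔ Subgroup.closure ((insert x s : Finset G) : Set G)
      have hYY : Y ≤ Y' := sup_le_sup_left (Subgroup.closure_mono (by simp)) _
      have hlt : Y < Y' := lt_of_le_of_ne hYY fun h => hxY (h ▸
        Subgroup.mem_sup_right (Subgroup.subset_closure (by simp)))
      obtain ⟨d, hd⟩ := Subgroup.card_dvd_of_le hYY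
      have hd1 : 2 ≤ d := by
        rcases d with _ | _ | d
        · exact absurd hd (by simp [Nat.card_pos.ne'])
        · exact absurd (Subgroup.eq_of_le_of_card_ge hYY (by omega)) hlt.ne
        · omega
      rw [hd]
      exact Nat.mul_le_mul h3 hd1
    · rw [Finset.card_insert_of_notMem (fun h => hxY (Subgroup.mem_sup_right (Subgroup.subset_closure h))),
        h4.resolve_right hle]

theorem two_mul_card_le_of_fixed {A X : Subgroup G} (hA : ∀ a ∈ A, ∀ b ∈ A, a * b = b * a)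
    (hAp : IsPGroup 2 ↥A) (hX : IsElementaryAbelian 2 X) (hn : A ≤ Subgroup.normalizer (X : Set G))
    {z : G} (hz : z ∈ X) (hz1 : z ≠ 1)
    (hfix : ∀ x ∈ X, (∀ a ∈ A, a * x = x * a) → x = 1 ∨ x = z)
    (hzfix : ∀ a ∈ A, a * z = z * a) :
    2 * Nat.card A ≤ Nat.card X * Nat.card ↥(A ⊓ Subgroup.centralizer (X : Set G)) := by
  classical
  haveI : Fact (Nat.Prime 2) := ⟨Nat.prime_two⟩
  obtain ⟨s, hsX, hzs, hcard, hgen⟩ := exists_complement hX hz hz1
  have hX' := CfsgLib.LocalP.isElementaryAbelian_iff.mp hX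
  set X₀ := Subgroup.closure (s : Set G) with hX₀
  have hX₀X : X₀ ≤ X := (Subgroup.closure_le _).mpr hsX
  have hxor : ∀ x ∈ X, (x ∈ X₀ ↔ ¬ z * x ∈ X₀) := by
    intro x hx
    refine ⟨fun h h' => hzs (by simpa using mul_mem h' (inv_mem h)), fun h => ?_⟩
    have hmem := hgen hx
    have hn' : X₀ ≤ Subgroup.normalizer (Subgroup.zpowers z : Set G) := by
      refine le_trans ?_ (Subgroup.centralizer_le_normalizer _)
      exact fun y hy => Subgroup.mem_centralizer_iff.mpr fun w hw =>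
        hX'.1 w (Subgroup.zpowers_le.mpr hz hw) y (hX₀X hy)
    have hmem' : x ∈ (Subgroup.zpowers z : Set G) * (X₀ : Set G) := by
      rw [← Subgroup.coe_mul_of_right_le_normalizer_left _ _ hn']; exact hmem
    obtain ⟨_, ⟨i, rfl⟩, h₀, hh₀, rfl⟩ := hmem'
    rcases Int.even_or_odd i with ⟨j, rfl⟩ | ⟨j, rfl⟩
    · simpa [← two_mul, zpow_mul, zpow_ofNat, hX'.2 z hz] using hh₀
    · refine absurd ?_ h
      simp only [zpow_add, zpow_mul, zpow_ofNat, hX'.2 z hz, one_zpow, one_mul, zpow_one, pow_one]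
      rw [← mul_assoc, show z * z = 1 by rw [← sq]; exact hX'.2 z hz, one_mul]
      exact hh₀
  have hmul : ∀ x ∈ X, ∀ y ∈ X, (x * y ∈ X₀ ↔ (x ∈ X₀ ↔ y ∈ X₀)) := by
    intro x hx y hy
    by_cases h1 : x ∈ X₀
    · simp only [h1, true_iff]
      exact Subgroup.mul_mem_cancel_left _ h1
    · have h2 : z * x ∈ X₀ := by
        by_contra h2
        exact h1 ((hxor x hx).mpr h2)
      simp only [h1, false_iff]
      rw [hxor _ (mul_mem hx hy), ← mul_assoc, Subgroup.mul_mem_cancel_left _ h2]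
  set C := A ⊓ Subgroup.centralizer (X : Set G) with hC
  -- an element preserving the hyperplane centralizes `X`
  have hstab : ∀ c ∈ A, (∀ y ∈ X₀, c * y * c⁻¹ ∈ X₀) → c ∈ C := by
    intro c hc hcy
    refine ⟨hc, Subgroup.mem_centralizer_iff.mpr fun x hx => ?_⟩
    by_contra hne
    let I : Subgroup G :=
      { carrier := {w | ∃ x ∈ X, w = c * x * c⁻¹ * x⁻¹}
        one_mem' := ⟨1, one_mem _, by group⟩
        mul_mem' := by
          rintro _ _ ⟨x, hx, rfl⟩ ⟨y, hy, rfl⟩
          refine ⟨x * y, mul_mem hx hy, ?_⟩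
          have hcx : c * x * c⁻¹ ∈ X := (Subgroup.mem_normalizer_iff.mp (hn hc) x).mp hx
          have hcy' : c * y * c⁻¹ ∈ X := (Subgroup.mem_normalizer_iff.mp (hn hc) y).mp hy
          calc c * x * c⁻¹ * x⁻¹ * (c * y * c⁻¹ * y⁻¹)
              = c * x * c⁻¹ * (x⁻¹ * (c * y * c⁻¹ * y⁻¹)) := by group
            _ = c * x * c⁻¹ * ((c * y * c⁻¹ * y⁻¹) * x⁻¹) := by
                rw [hX'.1 x⁻¹ (inv_mem hx) _ (mul_mem hcy' (inv_mem hy))]
            _ = c * (x * y) * c⁻¹ * (x * y)⁻¹ := by group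
        inv_mem' := by
          rintro _ ⟨x, hx, rfl⟩
          refine ⟨x⁻¹, inv_mem hx, ?_⟩
          have hcx : c * x * c⁻¹ ∈ X := (Subgroup.mem_normalizer_iff.mp (hn hc) x).mp hx
          calc (c * x * c⁻¹ * x⁻¹)⁻¹ = x * (c * x * c⁻¹)⁻¹ := by group
            _ = (c * x * c⁻¹)⁻¹ * x := hX'.1 x hx _ (inv_mem hcx)
            _ = c * x⁻¹ * c⁻¹ * x⁻¹⁻¹ := by group }
    have hIX : I ≤ X := by
      rintro _ ⟨x, hx, rfl⟩
      exact mul_mem ((Subgroup.mem_normalizer_iff.mp (hn hc) x).mp hx) (inv_mem hx)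
    have hIn : A ≤ Subgroup.normalizer (I : Set G) := by
      have h : ∀ a ∈ A, ∀ w ∈ I, a * w * a⁻¹ ∈ I := by
        rintro a ha _ ⟨x, hx, rfl⟩
        refine ⟨a * x * a⁻¹, (Subgroup.mem_normalizer_iff.mp (hn ha) x).mp hx, ?_⟩
        calc a * (c * x * c⁻¹ * x⁻¹) * a⁻¹ = (a * c) * x * (a * c)⁻¹ * (a * x⁻¹ * a⁻¹) := by group
          _ = (c * a) * x * (c * a)⁻¹ * (a * x⁻¹ * a⁻¹) := by rw [hA a ha c hc]
          _ = _ := by group
      exact fun a ha => Subgroup.mem_normalizer_iff.mpr fun w => ⟨h a ha w, fun hw => by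
        simpa [mul_assoc] using h a⁻¹ (inv_mem ha) _ hw⟩
    have hIne : ∃ w ∈ I, w ≠ 1 := ⟨_, ⟨x, hx, rfl⟩, fun h => hne
      (mul_inv_eq_iff_eq_mul.mp (mul_inv_eq_one.mp h)).symm⟩
    -- a fixed point in `I`
    letI : MulAction ↥A ↥I :=
      { smul := fun a w => ⟨a * w * (a : G)⁻¹, (Subgroup.mem_normalizer_iff.mp (hIn a.2) _).mp w.2⟩
        one_smul := fun w => Subtype.ext (by show (1 : G) * w * (1 : G)⁻¹ = w; group)
        mul_smul := fun a b w => Subtype.ext (by
          show ((a : G) * b) * w * ((a : G) * b)⁻¹ = a * (b * w * (b : G)⁻¹) * (a : G)⁻¹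
          group) }
    obtain ⟨w₀, hw₀, hw₀1⟩ := hIne
    have hIcard : 2 ∣ Nat.card ↥I := by
      have hw2 : orderOf w₀ = 2 := orderOf_eq_prime (hX'.2 w₀ (hIX hw₀)) hw₀1
      exact hw2 ▸ Subgroup.orderOf_dvd_natCard I hw₀
    have h1fix : (⟨1, one_mem I⟩ : ↥I) ∈ MulAction.fixedPoints ↥A ↥I :=
      fun a => Subtype.ext (by show (a : G) * 1 * (a : G)⁻¹ = 1; group)
    obtain ⟨⟨w, hw⟩, hwfix, hwne⟩ := hAp.exists_fixed_point_of_prime_dvd_card_of_fixed_point _ hIcard h1fix
    have hw1 : w ≠ 1 := fun h => hwne (Subtype.ext h.symm)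
    have hwz : w = z := (hfix w (hIX hw) fun a ha =>
      mul_inv_eq_iff_eq_mul.mp (congrArg Subtype.val (hwfix ⟨a, ha⟩))).resolve_left hw1
    subst hwz
    obtain ⟨y, hy, hye⟩ := hw
    rcases em (y ∈ X₀) with h | h
    · exact hzs (hye ▸ mul_mem (hcy y h) (inv_mem h))
    · have h2 : w * y ∈ X₀ := by
        by_contra h2
        exact h ((hxor y hy).mpr h2)
      refine hzs ?_
      have h3 : c * (w * y) * c⁻¹ * (w * y)⁻¹ = w := by
        have hcw : c * w * c⁻¹ = w := mul_inv_eq_iff_eq_mul.mpr (hzfix c hc)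
        calc c * (w * y) * c⁻¹ * (w * y)⁻¹ = (c * w * c⁻¹) * (c * y * c⁻¹ * y⁻¹) * w⁻¹ := by group
          _ = w := by rw [hcw, ← hye, mul_inv_cancel_right]
      exact h3 ▸ mul_mem (hcy _ h2) (inv_mem h2)
  let f : ↥A → (↥s → Bool) := fun a x => decide ((a : G) * x * (a : G)⁻¹ ∈ X₀)
  have hf : ∀ a b : ↥A, f a = f b → ((a : G) * (b : G)⁻¹) ∈ C := by
    intro a b hab
    refine hstab _ (mul_mem a.2 (inv_mem b.2)) fun y hy => ?_
    have key : ∀ x ∈ Subgroup.zpowers z ⊔ X₀, x ∈ X ∧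
        ((a : G) * x * (a : G)⁻¹ ∈ X₀ ↔ (b : G) * x * (b : G)⁻¹ ∈ X₀) := by
      intro x hx
      rw [hX₀, Subgroup.zpowers_eq_closure, ← Subgroup.closure_union] at hx
      induction hx using Subgroup.closure_induction with
      | mem x hx =>
        rcases hx with hx | hx
        · obtain rfl : x = z := hx
          exact ⟨hz, by rw [hzfix a a.2, hzfix b b.2, mul_inv_cancel_right, mul_inv_cancel_right]⟩
        · exact ⟨hsX hx, decide_eq_decide.mp (congrFun hab ⟨x, hx⟩)⟩
      | one => exact ⟨one_mem _, by simp⟩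
      | mul x y _ _ hx hy =>
        refine ⟨mul_mem hx.1 hy.1, ?_⟩
        have e : ∀ u : G, u * (x * y) * u⁻¹ = (u * x * u⁻¹) * (u * y * u⁻¹) := fun u => by group
        rw [e, e, hmul _ ((Subgroup.mem_normalizer_iff.mp (hn a.2) x).mp hx.1) _
            ((Subgroup.mem_normalizer_iff.mp (hn a.2) y).mp hy.1),
          hmul _ ((Subgroup.mem_normalizer_iff.mp (hn b.2) x).mp hx.1) _
            ((Subgroup.mem_normalizer_iff.mp (hn b.2) y).mp hy.1), hx.2, hy.2]
      | inv x _ hx =>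
        refine ⟨inv_mem hx.1, ?_⟩
        simp only [← conj_inv, inv_mem_iff, hx.2]
    have hx : (b : G)⁻¹ * y * b ∈ X :=
      (Subgroup.mem_normalizer_iff''.mp (hn b.2) y).mp (hX₀X hy)
    have h := (key _ (hgen hx)).2.mpr (by simpa [mul_assoc] using hy)
    simpa [mul_assoc] using h
  have hidx : Nat.card A ≤ 2 ^ s.card * Nat.card C := by
    haveI : Fintype ↥A := Fintype.ofFinite _
    have h := Finset.card_le_mul_card_image (f := f) (Finset.univ : Finset ↥A) (Nat.card C) (by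
      intro v hv
      obtain ⟨a, -, rfl⟩ := Finset.mem_image.mp hv
      rw [← Set.ncard_coe_finset, Finset.coe_filter]
      refine le_trans (Set.ncard_le_ncard_of_injOn (fun b : ↥A => (b : G) * (a : G)⁻¹)
        (t := (C : Set G)) ?_ ?_ (Set.toFinite _)) (le_of_eq (Nat.card_coe_set_eq _).symm)
      · intro b hb
        exact hf b a hb.2
      · intro b _ c _ hbc
        exact Subtype.ext (mul_right_cancel hbc))
    rw [Finset.card_univ, ← Nat.card_eq_fintype_card] at h
    refine h.trans (le_of_le_of_eq (Nat.mul_le_mul_left _ (Finset.card_le_univ _)) ?_)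
    rw [Fintype.card_fun, Fintype.card_bool, Fintype.card_coe, mul_comm]
  calc 2 * Nat.card A ≤ 2 * (2 ^ s.card * Nat.card C) := Nat.mul_le_mul_left _ hidx
    _ = 2 * 2 ^ s.card * Nat.card C := (mul_assoc _ _ _).symm
    _ ≤ _ := Nat.mul_le_mul_right _ hcard

end CfsgLib.JComp
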