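import Mathlib

/-!
Transfer: an involution of a Sylow 2-subgroup all whose conjugates in that subgroup have the same
nontrivial image in an elementary abelian group is not a product of elements of odd order.
-/

set_option autoImplicit false

namespace CfsgLib.JComp

variable {G : Type*} [Group G] [Finite G]

theorem not_mem_closure_odd {R : Subgroup G} (hR : Odd R.index) {A : Type*} [CommGroup A]
    (hA : ∀ a : A, ∃ k : ℕ, a ^ 2 ^ k = 1) (φ : ↥R →* A) {u : G} (hu : u ∈ R) (hu2 : u * u = 1)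
    (hconj : ∀ (g : G) (hg : g⁻¹ * u * g ∈ R), φ ⟨_, hg⟩ = φ ⟨u, hu⟩) (hne : φ ⟨u, hu⟩ ≠ 1) :
    u ∉ Subgroup.closure {g : G | Odd (orderOf g)} := by
  classical
  intro hmem
  have hle : Subgroup.closure {g : G | Odd (orderOf g)} ≤ (MonoidHom.transfer φ).ker := by
    refine (Subgroup.closure_le _).mpr fun g (hg : Odd (orderOf g)) => ?_
    obtain ⟨k, hk⟩ := hA (MonoidHom.transfer φ g)
    have h1 : orderOf (MonoidHom.transfer φ g) ∣ 2 ^ k := orderOf_dvd_of_pow_eq_one hk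
    have h2 : orderOf (MonoidHom.transfer φ g) ∣ orderOf g := orderOf_map_dvd _ g
    have h3 : (orderOf (MonoidHom.transfer φ g)).Coprime (orderOf (MonoidHom.transfer φ g)) :=
      Nat.Coprime.coprime_dvd_left h1 (Nat.Coprime.coprime_dvd_right h2
        ((Nat.coprime_two_left.mpr hg).pow_left k))
    exact MonoidHom.mem_ker.mpr (orderOf_eq_one_iff.mp ((Nat.coprime_self _).mp h3))
  have htr : MonoidHom.transfer φ u = 1 := MonoidHom.mem_ker.mp (hle hmem)
  set a := φ ⟨u, hu⟩ with ha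
  have ha2 : a ^ 2 = 1 := by
    rw [ha, ← map_pow, show (⟨u, hu⟩ : ↥R) ^ 2 = 1 from Subtype.ext (by simp [sq, hu2]), map_one]
  haveI : Fintype (G ⧸ R) := Fintype.ofFinite _
  haveI : Fintype (Quotient (MulAction.orbitRel (Subgroup.zpowers u) (G ⧸ R))) := Fintype.ofFinite _
  rw [MonoidHom.transfer_eq_prod_quotient_orbitRel_zpowers_quot] at htr
  have hfac : ∀ (r : ℕ) (g : G) (hg : g⁻¹ * u ^ r * g ∈ R), φ ⟨_, hg⟩ = a ^ r := by
    intro r g hg
    rcases Nat.even_or_odd r with ⟨m, hm⟩ | ⟨m, hm⟩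
    · have e : u ^ r = 1 := by rw [hm, ← two_mul, pow_mul, sq, hu2, one_pow]
      rw [show (⟨g⁻¹ * u ^ r * g, hg⟩ : ↥R) = 1 from Subtype.ext (by simp [e]), map_one, hm, ← two_mul,
        pow_mul, ha2, one_pow]
    · have e : u ^ r = u := by rw [hm, pow_succ, pow_mul, sq, hu2, one_pow, one_mul]
      have hg' : g⁻¹ * u * g ∈ R := by rwa [e] at hg
      rw [show (⟨g⁻¹ * u ^ r * g, hg⟩ : ↥R) = ⟨_, hg'⟩ from Subtype.ext (by simp [e]), hconj g hg',
        hm, pow_succ, pow_mul, ha2, one_pow, one_mul]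
  rw [Finset.prod_congr rfl (fun q _ => hfac _ _ _), Finset.prod_pow_eq_pow_sum,
    ← Subgroup.index_eq_sum_minimalPeriod R u] at htr
  obtain ⟨m, hm⟩ := hR
  rw [hm, pow_succ, pow_mul, ha2, one_pow, one_mul] at htr
  exact hne htr

end CfsgLib.JComp
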