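import Cfsg.Agent.JComp.Basic
import Cfsg.Agent.JComp.FixedBound
import Cfsg.Agent.LocalCharP.WeaklyClosed

/-!
A largest elementary abelian subgroup `A` normalizes a four-group `W` with a fixed-point-free element
`k`, as soon as `k` centralizes the conjugates of `W` under the elements of `A` that move `W`.
-/

set_option autoImplicit false

open Cfsg
open scoped Pointwise

namespace CfsgLib.JComp

variable {G : Type*} [Group G] [Finite G]

local instance : Fact (Nat.Prime 2) := ⟨Nat.prime_two⟩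

theorem card_sup_le_mul {A B : Subgroup G} (h : B ≤ Subgroup.normalizer (A : Set G)) :
    Nat.card ↥(A ⊔ B) ≤ Nat.card A * Nat.card B := by
  have e : ((A ⊔ B : Subgroup G) : Set G) = Set.image2 (· * ·) (A : Set G) (B : Set G) :=
    Subgroup.coe_mul_of_right_le_normalizer_left A B h
  have h2 : Nat.card ↥(A ⊔ B) = (Set.image2 (· * ·) (A : Set G) (B : Set G)).ncard := by
    rw [← e, ← Nat.card_coe_set_eq]
    rfl
  rw [h2, ← Set.image_prod]
  refine (Set.ncard_image_le (Set.toFinite _)).trans ?_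
  rw [Set.ncard_prod, ← Nat.card_coe_set_eq, ← Nat.card_coe_set_eq]
  exact le_rfl

omit [Finite G] in
theorem mul_decomp_unique {A B : Subgroup G} (h : A ⊓ B = ⊥) {a a' b b' : G} (ha : a ∈ A) (ha' : a' ∈ A)
    (hb : b ∈ B) (hb' : b' ∈ B) (he : a * b = a' * b') : a = a' := by
  have h1 : a'⁻¹ * a ∈ A ⊓ B := by
    refine ⟨A.mul_mem (A.inv_mem ha') ha, ?_⟩
    have : a'⁻¹ * a = b' * b⁻¹ := by
      calc a'⁻¹ * a = a'⁻¹ * (a * b) * b⁻¹ := by group
        _ = a'⁻¹ * (a' * b') * b⁻¹ := by rw [he]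
        _ = b' * b⁻¹ := by group
    rw [this]
    exact B.mul_mem hb' (B.inv_mem hb)
  rw [h, Subgroup.mem_bot] at h1
  exact (inv_mul_eq_one.mp h1).symm

theorem le_normalizer_of_conjugates {T A W : Subgroup G} (hA : MaxE T A) {k : G}
    (hW4 : Nat.card W = 4) (hWel : IsElementaryAbelian 2 W)
    (hWT : ∀ a ∈ A, W.map (MulAut.conj a).toMonoidHom ≤ T)
    (hab : ∀ a ∈ A, ∀ w ∈ W, ∀ w' ∈ W, (a * w * a⁻¹) * w' = w' * (a * w * a⁻¹))
    (hkW : k ∈ Subgroup.normalizer (W : Set G)) (hfpf : ∀ w ∈ W, k * w * k⁻¹ = w → w = 1)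
    (hfix : ∀ a ∈ A, a ∉ Subgroup.normalizer (W : Set G) → ∀ w ∈ W,
      k * (a * w * a⁻¹) * k⁻¹ = a * w * a⁻¹) :
    A ≤ Subgroup.normalizer (W : Set G) := by
  classical
  haveI : Fintype ↥A := Fintype.ofFinite _
  have hAel := CfsgLib.LocalP.isElementaryAbelian_iff.mp hA.2.1
  let cW : G → Subgroup G := fun a => W.map (MulAut.conj a).toMonoidHom
  have hmem : ∀ a y, y ∈ cW a ↔ a⁻¹ * y * a ∈ W := fun a y => mem_map_conj
  have hcW1 : cW 1 = W := by
    ext y; rw [hmem]; simp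
  have hcWn : ∀ a, cW a = W ↔ a ∈ Subgroup.normalizer (W : Set G) := fun a =>
    Subgroup.mem_normalizer_iff_map_conj_eq.symm
  let s : Finset (Subgroup G) := Finset.univ.image fun a : ↥A => cW a
  have hs : ∀ B ∈ s, ∃ b ∈ A, cW b = B := by
    intro B hB
    obtain ⟨b, -, rfl⟩ := Finset.mem_image.mp hB
    exact ⟨b, b.2, rfl⟩
  choose bB hbB using hs
  -- the element attached to a member
  let kB : (B : Subgroup G) → B ∈ s → G := fun B hB => bB B hB * k * (bB B hB)⁻¹
  have hkfpf : ∀ B hB, ∀ y ∈ B, kB B hB * y * (kB B hB)⁻¹ = y → y = 1 := by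
    intro B hB y hy h
    obtain ⟨hb, hbe⟩ := hbB B hB
    rw [← hbe, hmem] at hy
    have h1 := hfpf _ hy (by
      calc k * ((bB B hB)⁻¹ * y * bB B hB) * k⁻¹ = (bB B hB)⁻¹ * (kB B hB * y * (kB B hB)⁻¹) * bB B hB := by
            simp only [kB]; group
        _ = _ := by rw [h])
    calc y = bB B hB * ((bB B hB)⁻¹ * y * bB B hB) * (bB B hB)⁻¹ := by group
      _ = 1 := by rw [h1]; group
  have hkfix : ∀ B hB, ∀ B' ∈ s, B' ≠ B → ∀ y ∈ B', kB B hB * y * (kB B hB)⁻¹ = y := by
    intro B hB B' hB' hne y hy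
    obtain ⟨hb, hbe⟩ := hbB B hB
    obtain ⟨hb', hbe'⟩ := hbB B' hB'
    set b := bB B hB
    set b' := bB B' hB'
    have hnn : b⁻¹ * b' ∉ Subgroup.normalizer (W : Set G) := by
      intro h
      refine hne (hbe'.symm.trans (?_ : cW b' = B))
      rw [← hbe]
      ext y
      rw [hmem, hmem, Subgroup.mem_normalizer_iff.mp h (b'⁻¹ * y * b')]
      simp [mul_assoc]
    rw [← hbe', hmem] at hy
    have h1 := hfix _ (mul_mem (inv_mem hb) hb') hnn _ hy
    calc kB B hB * y * (kB B hB)⁻¹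
        = b * (k * (b⁻¹ * b' * (b'⁻¹ * y * b') * (b⁻¹ * b')⁻¹) * k⁻¹) * b⁻¹ := by
          simp only [kB, b]; group
      _ = _ := by rw [h1]; group
  have hBel : ∀ B ∈ s, IsElementaryAbelian 2 B ∧ Nat.card B = 4 ∧ B ≤ T := by
    intro B hB
    obtain ⟨hb, hbe⟩ := hbB B hB
    rw [← hbe]
    exact ⟨CfsgLib.LocalP.isElementaryAbelian_map _ hWel,
      by rw [Subgroup.card_map_of_injective (MulAut.conj (bB B hB)).injective, hW4], hWT _ hb⟩
  have hcomm : ∀ B ∈ s, ∀ B' ∈ s, ∀ x ∈ B, ∀ y ∈ B', x * y = y * x := by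
    intro B hB B' hB' x hx y hy
    obtain ⟨hb, hbe⟩ := hbB B hB
    obtain ⟨hb', hbe'⟩ := hbB B' hB'
    set b := bB B hB
    set b' := bB B' hB'
    rw [← hbe, hmem] at hx
    rw [← hbe', hmem] at hy
    have h1 := hab _ (mul_mem (inv_mem hb') hb) _ hx _ hy
    calc x * y = b' * ((b'⁻¹ * b * (b⁻¹ * x * b) * (b'⁻¹ * b)⁻¹) * (b'⁻¹ * y * b')) * b'⁻¹ := by group
      _ = _ := by rw [h1]; group
  -- the span of a family of conjugates
  have key : ∀ t : Finset (Subgroup G), t ⊆ s →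
      IsElementaryAbelian 2 (t.sup id) ∧ t.sup id ≤ T ∧ 4 ^ t.card ≤ Nat.card ↥(t.sup id) ∧
      (∀ y ∈ t.sup id, (∀ B (hB : B ∈ s), B ∈ t → kB B hB * y * (kB B hB)⁻¹ = y) → y = 1) ∧
      (∀ B (hB : B ∈ s), B ∉ t → t.sup id ≤ Subgroup.centralizer ({kB B hB} : Set G)) := by
    intro t
    induction t using Finset.induction_on with
    | empty =>
      intro _
      refine ⟨CfsgLib.LocalP.isElementaryAbelian_bot, by simp, by simp, fun y hy _ => ?_, fun B hB _ => by simp⟩
      simpa using hy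
    | insert B t hBt ih =>
      intro hsub
      obtain ⟨hB, hts⟩ := Finset.insert_subset_iff.mp hsub
      obtain ⟨h1, h2, h3, h4, h5⟩ := ih hts
      rw [Finset.sup_insert, id_eq, Finset.card_insert_of_notMem hBt]
      set O := t.sup id
      have hcent : O ≤ Subgroup.centralizer (B : Set G) := Finset.sup_le fun B' hB' y hy =>
        Subgroup.mem_centralizer_iff.mpr fun x hx => hcomm B hB B' (hts hB') x hx y hy
      have hn : O ≤ Subgroup.normalizer (B : Set G) := hcent.trans (Subgroup.centralizer_le_normalizer _)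
      have hkO : ∀ y ∈ O, kB B hB * y * (kB B hB)⁻¹ = y := fun y hy =>
        mul_inv_eq_iff_eq_mul.mpr (Subgroup.mem_centralizer_singleton_iff.mp (h5 B hB hBt hy)).symm
      have hdis : B ⊓ O = ⊥ := by
        rw [eq_bot_iff]
        rintro y ⟨hyB, hyO⟩
        exact Subgroup.mem_bot.mpr (hkfpf B hB y hyB (hkO y hyO))
      refine ⟨CfsgLib.LocalP.isElementaryAbelian_sup (hBel B hB).1 h1
        (fun x hx y hy => Subgroup.mem_centralizer_iff.mp (hcent hy) x hx), sup_le (hBel B hB).2.2 h2, ?_, ?_, ?_⟩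
      · have h := CfsgLib.LocalP.card_mul_le_card_sup_mul_card_inf B O
        rw [hdis, Subgroup.card_bot, mul_one, (hBel B hB).2.1] at h
        refine le_trans ?_ h
        rw [pow_succ']
        exact Nat.mul_le_mul_left _ h3
      · intro y hy hall
        have hy' : y ∈ (B : Set G) * (O : Set G) := by
          rw [← Subgroup.coe_mul_of_right_le_normalizer_left B O hn]; exact hy
        obtain ⟨x, hx, z, hz, rfl⟩ := hy'
        simp only [SetLike.mem_coe] at hx hz
        have hxk : kB B hB * x * (kB B hB)⁻¹ = x := by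
          have h := hall B hB (Finset.mem_insert_self B t)
          rw [← conj_mul, hkO z hz] at h
          exact mul_right_cancel h
        have hx1 := hkfpf B hB x hx hxk
        subst hx1
        simp only [one_mul] at hall ⊢
        exact h4 z hz fun B' hB' hB't => hall B' hB' (Finset.mem_insert_of_mem hB't)
      · intro B' hB' hB'n
        rw [Finset.mem_insert, not_or] at hB'n
        refine sup_le (fun x hx => Subgroup.mem_centralizer_singleton_iff.mpr ?_) (h5 B' hB' hB'n.2)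
        exact (mul_inv_eq_iff_eq_mul.mp (hkfix B' hB' B hB (Ne.symm hB'n.1) x hx)).symm
  by_contra hnot
  have hW : W ∈ s := Finset.mem_image.mpr ⟨⟨1, one_mem A⟩, Finset.mem_univ _, hcW1⟩
  set m := s.card with hm
  have hm2 : 2 ≤ m := by
    obtain ⟨a, ha, haN⟩ := SetLike.not_le_iff_exists.mp hnot
    refine Finset.one_lt_card.mpr ⟨W, hW, cW a, Finset.mem_image.mpr ⟨⟨a, ha⟩, Finset.mem_univ _, rfl⟩, ?_⟩
    exact fun h => haN ((hcWn a).mp h.symm)
  set A₀ := A ⊓ Subgroup.normalizer (W : Set G) with hA₀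
  set A₁ := A ⊓ Subgroup.centralizer (W : Set G) with hA₁
  set Y := s.sup id with hY
  set rest := (s.erase W).sup id with hrest
  obtain ⟨hYel, hYT, hYcard, hYfix, -⟩ := key s (Finset.Subset.refl s)
  obtain ⟨hrestel, -, -, -, -⟩ := key (s.erase W) (Finset.erase_subset _ _)
  have hsplit : Y = W ⊔ rest := by
    rw [hY, hrest, ← Finset.insert_erase hW, Finset.sup_insert, id_eq, Finset.erase_insert_eq_erase,
      Finset.erase_idem]
  -- orbit count
  have hcard : Nat.card A ≤ m * Nat.card A₀ := by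
    have h := Finset.card_le_mul_card_image (f := fun a : ↥A => cW a) (Finset.univ : Finset ↥A)
      (Nat.card A₀) (by
      intro B hB
      obtain ⟨b, -, rfl⟩ := Finset.mem_image.mp hB
      rw [← Set.ncard_coe_finset, Finset.coe_filter]
      refine le_trans (Set.ncard_le_ncard_of_injOn (fun a : ↥A => (b : G)⁻¹ * (a : G))
        (t := (A₀ : Set G)) ?_ ?_ (Set.toFinite _)) (le_of_eq (Nat.card_coe_set_eq _).symm)
      · intro a ha
        have hae : cW a = cW b := ha.2
        refine ⟨A.mul_mem (A.inv_mem b.2) a.2, Subgroup.mem_normalizer_iff.mpr fun y => ?_⟩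
        have h := SetLike.ext_iff.mp hae ((b : G) * ((b : G)⁻¹ * (a : G) * y * ((b : G)⁻¹ * (a : G))⁻¹) * (b : G)⁻¹)
        rw [hmem, hmem] at h
        simpa [mul_assoc] using h
      · intro a _ a' _ h
        exact Subtype.ext (mul_left_cancel h))
    rw [Finset.card_univ, ← Nat.card_eq_fintype_card] at h
    exact h.trans (le_of_eq (mul_comm _ _))
  -- `A₁` centralizes `Y`
  have hA₁Y : Y ≤ Subgroup.centralizer (A₁ : Set G) := Finset.sup_le fun B hB y hy => by
    obtain ⟨hb, hbe⟩ := hbB B hB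
    refine Subgroup.mem_centralizer_iff.mpr fun c hc => ?_
    rw [id_eq, ← hbe, hmem] at hy
    set b := bB B hB
    have h1 : c * (b⁻¹ * y * b) = b⁻¹ * y * b * c :=
      (Subgroup.mem_centralizer_iff.mp hc.2 _ hy).symm
    have h2 : c * b = b * c := hAel.1 c hc.1 b hb
    calc c * y = c * (b * (b⁻¹ * y * b) * b⁻¹) := by group
      _ = b * (c * (b⁻¹ * y * b)) * b⁻¹ := by rw [← mul_assoc, ← mul_assoc, h2]; group
      _ = b * (b⁻¹ * y * b * c) * b⁻¹ := by rw [h1]
      _ = y * (b * c * b⁻¹) := by group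
      _ = y * c := by rw [← h2, mul_inv_cancel_right]
  have hbound := maxE_bound hA (inf_le_left : A₁ ≤ A) hYT hYel
  rw [inf_eq_left.mpr hA₁Y] at hbound
  set C := Y ⊓ Subgroup.centralizer (A : Set G) with hC
  set W₀ := W ⊓ Subgroup.centralizer (A₀ : Set G) with hW₀
  have hA₀member : ∀ B ∈ s, ∀ c ∈ A₀, ∀ y ∈ B, c * y * c⁻¹ ∈ B := by
    intro B hB c hc y hy
    obtain ⟨hb, hbe⟩ := hbB B hB
    rw [← hbe, hmem] at hy ⊢
    set b := bB B hB
    have h2 : c * b = b * c := hAel.1 c hc.1 b hb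
    have := conj_mem hc.2 hy
    have e : b⁻¹ * (c * y * c⁻¹) * b = c * (b⁻¹ * y * b) * c⁻¹ := by
      calc b⁻¹ * (c * y * c⁻¹) * b = b⁻¹ * c * y * (c⁻¹ * b) := by group
        _ = (c * b⁻¹) * y * (b * c⁻¹) := by
          rw [show c⁻¹ * b = b * c⁻¹ from (Commute.inv_left (show Commute c b from h2)).eq,
            show b⁻¹ * c = c * b⁻¹ from (Commute.inv_left (show Commute b c from h2.symm)).eq]
        _ = _ := by group
    rwa [e]
  have hcent : rest ≤ Subgroup.centralizer (W : Set G) := Finset.sup_le fun B hB y hy =>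
    Subgroup.mem_centralizer_iff.mpr fun x hx => hcomm W hW B (Finset.mem_of_mem_erase hB) x hx y hy
  have hkrest : ∀ y ∈ rest, kB W hW * y * (kB W hW)⁻¹ = y := fun y hy =>
    mul_inv_eq_iff_eq_mul.mpr (Subgroup.mem_centralizer_singleton_iff.mp
      ((key (s.erase W) (Finset.erase_subset _ _)).2.2.2.2 W hW (Finset.notMem_erase W s) hy)).symm
  have hWrest : W ⊓ rest = ⊥ := by
    rw [eq_bot_iff]
    rintro y ⟨hyW, hyr⟩
    exact Subgroup.mem_bot.mpr (hkfpf W hW y hyW (hkrest y hyr))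
  have hrestA : ∀ c ∈ A₀, ∀ y ∈ rest, c * y * c⁻¹ ∈ rest := by
    intro c hc y hy
    have hle : rest ≤ rest.comap (MulAut.conj c).toMonoidHom := Finset.sup_le fun B hB z hz => by
      show c * z * c⁻¹ ∈ rest
      exact (Finset.le_sup (f := id) hB : B ≤ rest) (hA₀member B (Finset.mem_of_mem_erase hB) c hc z hz)
    exact hle hy
  have hCrest : C ⊓ rest = ⊥ := by
    rw [eq_bot_iff]
    rintro y ⟨⟨hyY, hyA⟩, hyr⟩
    refine Subgroup.mem_bot.mpr (hYfix y hyY fun B hB _ => ?_)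
    obtain ⟨hb, hbe⟩ := hbB B hB
    have hfixA : ∀ c ∈ A, c * y * c⁻¹ = y := fun c hc =>
      mul_inv_eq_iff_eq_mul.mpr (Subgroup.mem_centralizer_iff.mp hyA c hc)
    have hkW' : kB W hW * y * (kB W hW)⁻¹ = y := hkrest y hyr
    obtain ⟨hb0, -⟩ := hbB W hW
    set b₀ := bB W hW
    set b := bB B hB
    calc kB B hB * y * (kB B hB)⁻¹
        = (b * b₀⁻¹) * (kB W hW * ((b * b₀⁻¹)⁻¹ * y * (b * b₀⁻¹)⁻¹⁻¹) * (kB W hW)⁻¹) * (b * b₀⁻¹)⁻¹ := by
          simp only [kB, b, b₀]; group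
      _ = _ := by rw [hfixA _ (inv_mem (mul_mem hb (inv_mem hb0))), hkW', hfixA _ (mul_mem hb (inv_mem hb0))]
  have hCle : C ⊔ rest ≤ W₀ ⊔ rest := by
    refine sup_le (fun y hy => ?_) le_sup_right
    have hy' : y ∈ (W : Set G) * (rest : Set G) := by
      rw [← Subgroup.coe_mul_of_right_le_normalizer_left W rest
        (hcent.trans (Subgroup.centralizer_le_normalizer _)), ← hsplit]
      exact hy.1
    obtain ⟨w, hw, z, hz, rfl⟩ := hy'
    simp only [SetLike.mem_coe] at hw hz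
    refine mul_mem (Subgroup.mem_sup_left ⟨hw, Subgroup.mem_centralizer_iff.mpr fun c hc => ?_⟩)
      (Subgroup.mem_sup_right hz)
    have h := mul_inv_eq_iff_eq_mul.mpr (Subgroup.mem_centralizer_iff.mp hy.2 c hc.1)
    rw [← conj_mul] at h
    exact mul_inv_eq_iff_eq_mul.mp
      (mul_decomp_unique hWrest (conj_mem hc.2 hw) hw (hrestA c hc z hz) hz h)
  have hCcard : Nat.card C ≤ Nat.card W₀ := by
    have h1 := CfsgLib.LocalP.card_mul_le_card_sup_mul_card_inf C rest
    rw [hCrest, Subgroup.card_bot, mul_one] at h1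
    have hn : rest ≤ Subgroup.normalizer (W₀ : Set G) := by
      refine le_trans ?_ (Subgroup.centralizer_le_normalizer _)
      exact hcent.trans (Subgroup.centralizer_le inf_le_left)
    exact Nat.le_of_mul_le_mul_right
      (h1.trans ((Subgroup.card_le_of_le hCle).trans (card_sup_le_mul hn))) Nat.card_pos
  -- `|A₀ : A₁| |C_W(A₀)| ≤ 4`
  have hfour : Nat.card A₀ * Nat.card W₀ ≤ 4 * Nat.card A₁ := by
    rcases eq_or_ne A₀ A₁ with h | hne
    · rw [h, mul_comm]
      exact Nat.mul_le_mul_right _ (hW4 ▸ Subgroup.card_le_of_le inf_le_left)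
    have hA₀p : IsPGroup 2 ↥A₀ :=
      (CfsgLib.LocalP.isPGroup_of_isElementaryAbelian hA.2.1).to_le inf_le_left
    have hWne : W ≠ ⊥ := fun h => by rw [h, Subgroup.card_bot] at hW4; norm_num at hW4
    obtain ⟨z, hz, hz1⟩ := (Subgroup.bot_or_exists_ne_one W₀).resolve_left
      (CfsgLib.LocalCharP.inf_centralizer_ne_bot (CfsgLib.LocalP.isPGroup_of_isElementaryAbelian hWel) hWne
        hA₀p inf_le_right)
    have hW₀2 : Nat.card W₀ ≤ 2 := by
      obtain ⟨d, hd⟩ := Subgroup.card_dvd_of_le (inf_le_left : W₀ ≤ W)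
      rw [hW4] at hd
      by_contra hcon
      have hd1 : d = 1 := by
        rcases d with _ | _ | d
        · simp at hd
        · rfl
        · nlinarith
      have he : W₀ = W := Subgroup.eq_of_le_of_card_ge inf_le_left (by rw [hW4, hd, hd1, mul_one])
      refine hne (le_antisymm (fun c hc => ⟨hc.1, Subgroup.mem_centralizer_iff.mpr fun w hw => ?_⟩)
        (inf_le_inf_left _ (Subgroup.centralizer_le_normalizer _)))
      exact (Subgroup.mem_centralizer_iff.mp (he.symm ▸ hw : w ∈ W₀).2 c hc).symm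
    have hfix' : ∀ x ∈ W, (∀ c ∈ A₀, c * x = x * c) → x = 1 ∨ x = z := by
      intro x hx hxc
      by_contra hcon
      push Not at hcon
      have hsub : ({1, x, z} : Set G) ⊆ (W₀ : Set G) := by
        rintro y (rfl | rfl | rfl)
        exacts [one_mem _, ⟨hx, Subgroup.mem_centralizer_iff.mpr hxc⟩, hz]
      have hc := Set.ncard_le_ncard hsub (Set.toFinite _)
      rw [Set.ncard_insert_of_notMem (by simp [Ne.symm hcon.1, Ne.symm hz1]) (Set.toFinite _),
        Set.ncard_pair hcon.2, ← Nat.card_coe_set_eq] at hc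
      have hc' : 3 ≤ Nat.card ↥W₀ := hc
      omega
    have h := two_mul_card_le_of_fixed (A := A₀) (fun a ha b hb => hAel.1 a ha.1 b hb.1) hA₀p hWel inf_le_right
      hz.1 hz1 hfix' fun c hc => Subgroup.mem_centralizer_iff.mp hz.2 c hc
    have hle : Nat.card ↥(A₀ ⊓ Subgroup.centralizer (W : Set G)) ≤ Nat.card A₁ :=
      Subgroup.card_le_of_le (inf_le_inf_right _ inf_le_left)
    calc Nat.card A₀ * Nat.card W₀ ≤ Nat.card A₀ * 2 := Nat.mul_le_mul_left _ hW₀2
      _ = 2 * Nat.card A₀ := mul_comm _ _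
      _ ≤ _ := h.trans (by rw [hW4]; exact Nat.mul_le_mul_left _ hle)
  have h1 : Nat.card A₁ * 4 ^ m ≤ Nat.card A₁ * (4 * m) := by
    calc Nat.card A₁ * 4 ^ m ≤ Nat.card A₁ * Nat.card Y := Nat.mul_le_mul_left _ hYcard
      _ ≤ Nat.card A * Nat.card C := hbound
      _ ≤ (m * Nat.card A₀) * Nat.card W₀ := Nat.mul_le_mul hcard hCcard
      _ = m * (Nat.card A₀ * Nat.card W₀) := mul_assoc _ _ _
      _ ≤ m * (4 * Nat.card A₁) := Nat.mul_le_mul_left _ hfour
      _ = _ := by ring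
  have h2 : 4 ^ m ≤ 4 * m := Nat.le_of_mul_le_mul_left h1 Nat.card_pos
  obtain ⟨d, hd⟩ : ∃ d, m = d + 2 := ⟨m - 2, by omega⟩
  rw [hd, pow_add] at h2
  have h3 : d + 1 ≤ 4 ^ d := Nat.succ_le_of_lt (Nat.lt_pow_self (by norm_num))
  norm_num at h2
  omega

end CfsgLib.JComp
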